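import Cfsg.Agent.Lib.Glauberman.Layers

/-!
# A solvable group of coprime operators fixes a constituent above
-/

set_option autoImplicit false
set_option linter.unusedSectionVars false
set_option linter.style.haveILetI false

namespace Cfsg.Agent.Lib.Glauberman

open Cfsg Cfsg.Agent.Lib.Char
open scoped ComplexConjugate Classical

universe u

theorem mult_congr {K : Type u} [Group K] [Finite K] {p : ℕ} [Fact p.Prime] {C : Subgroup K}
    [Fintype C] {χ : IrrCharacter K} {β : IrrCharacter C} (hz : ∀ ξ, ξ ≠ β → (mult χ ξ : ZMod p) = 0)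
    {H : Type u} [Group H] [Fintype H] (j : H → C) (g : H → ℂ) (r : IrrCharacter C → ℕ)
    (hr : ∀ ξ : IrrCharacter C, classInner (fun z => (ξ : C → ℂ) (j z)) g = r ξ) (R : ℕ)
    (hR : classInner (fun z => (χ : K → ℂ) (j z : K)) g = R) :
    (R : ZMod p) = (mult χ β : ZMod p) * (r β : ZMod p) := by
  have hcl : IsClassFunction C (fun c : C => (χ : K → ℂ) c) :=
    isClassFunction_of_isCharacter (isCharacter_restrict (isCharacter_of_isIrr χ.2) C)
  have h : (R : ℂ) = ((∑ ξ : IrrCharacter C, mult χ ξ * r ξ : ℕ) : ℂ) := by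
    rw [← hR, classInner_comp_eq_sum (φ := fun c : C => (χ : K → ℂ) c) hcl j g]
    push_cast
    exact Finset.sum_congr rfl fun ξ _ => by rw [mult_spec, hr]
  rw [Nat.cast_injective h, Nat.cast_sum, Finset.sum_eq_single β
    (fun ξ _ hne => by rw [Nat.cast_mul, hz ξ hne, zero_mul]) (by simp), Nat.cast_mul]

theorem exists_inv_above_coprime : ∀ (n : ℕ) {K A : Type u} [Group K] [Fintype K] [Group A]
    [Finite A] (a : A →* MulAut K) {N : Subgroup K} [N.Normal] [Fintype N]
    (hN : ∀ x, ∀ k ∈ N, a x k ∈ N) {θ : IrrCharacter N}, Nat.card A = n → Group.IsSolvable A →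
    (Nat.card K).Coprime (Nat.card A) → Inv (restrAut a N hN) (θ : N → ℂ) →
    ∃ χ : IrrCharacter K, classInner (fun n : N => (χ : K → ℂ) n) (θ : N → ℂ) ≠ 0 ∧
      Inv a (χ : K → ℂ) := by
  intro n
  induction n using Nat.strong_induction_on with
  | _ n ih =>
  intro K A _ _ _ _ a N hNn _ hN θ hn hA hcop hθ
  subst hn
  rcases subsingleton_or_nontrivial A with hs | hs
  · obtain ⟨χ, hχ⟩ := exists_irr_over N θ.2
    exact ⟨χ, hχ, fun x k => by rw [Subsingleton.elim x 1, map_one, MulAut.one_apply]⟩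
  obtain ⟨p, T, hp, hTn, hTne, hTp⟩ := exists_normal_pGroup hA
  haveI := Fact.mk hp
  have hpT : p ∣ Nat.card T := by
    obtain ⟨j, hj⟩ := IsPGroup.iff_card.mp hTp
    rw [hj]
    exact dvd_pow_self p fun h0 => hTne (Subgroup.card_eq_one.mp (by rw [hj, h0, pow_zero]))
  have hK : ¬ p ∣ Nat.card K := fun h =>
    hp.not_dvd_one (hcop.gcd_eq_one ▸ Nat.dvd_gcd h (hpT.trans (Subgroup.card_subgroup_dvd_card T)))
  have hKN : ¬ p ∣ Nat.card N := fun h => hK (h.trans (Subgroup.card_subgroup_dvd_card N))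
  set b := a.comp T.subtype with hb
  set bN := (restrAut a N hN).comp T.subtype with hbN
  set C := fixed b with hC
  set CN := fixed bN with hCN
  have := Fintype.ofFinite C
  have := Fintype.ofFinite CN
  have hCinv : ∀ s, ∀ k ∈ C, a s k ∈ C := by
    intro s k hk t
    have h1 := hk ⟨s⁻¹ * t * s, by simpa using hTn.conj_mem (t : A) t.2 s⁻¹⟩
    change a (s⁻¹ * (t : A) * s) k = k at h1
    change a (t : A) (a s k) = a s k
    conv_rhs => rw [← h1]
    rw [← MulAut.mul_apply, ← MulAut.mul_apply, ← map_mul, ← map_mul, mul_assoc s⁻¹,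
      mul_inv_cancel_left]
  let j : CN →* C :=
    { toFun := fun z => ⟨((z : N) : K), fun t => congrArg Subtype.val (z.2 t)⟩
      map_one' := rfl
      map_mul' := fun _ _ => rfl }
  have hjinj : Function.Injective j := fun z w h =>
    Subtype.ext (Subtype.ext (congrArg (fun c : C => (c : K)) h))
  set D := j.range with hD
  have hDmem : ∀ c : C, c ∈ D ↔ (c : K) ∈ N := fun c =>
    ⟨fun ⟨z, hz⟩ => hz ▸ (z : N).2, fun h => ⟨⟨⟨c, h⟩, fun t => Subtype.ext (c.2 t)⟩, rfl⟩⟩
  haveI : D.Normal := ⟨fun d hd c => (hDmem _).mpr (hNn.conj_mem _ ((hDmem d).mp hd) c)⟩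
  have := Fintype.ofFinite D
  have hCNinv : ∀ s, ∀ z ∈ CN, restrAut a N hN s z ∈ CN := fun s z hz t =>
    Subtype.ext (hCinv s (z : K) (fun t' => congrArg Subtype.val (hz t')) t)
  -- the correspondents of `θ`
  have hθT : Inv bN (θ : N → ℂ) := fun x k => hθ x k
  obtain ⟨fN, hfN⟩ := exists_equiv_fixed (a := bN) hTp hKN
  obtain ⟨θ', hθ'⟩ : ∃ θ', θ' = fN ⟨θ, hθT⟩ := ⟨_, rfl⟩
  have hθ'inv : ∀ s, irrMap (restrAut (restrAut a N hN) CN hCNinv) s θ' = θ' := by
    intro s
    rw [hθ']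
    refine (hfN ⟨θ, hθT⟩ _).1 ?_
    have hm : mult θ (irrMap (restrAut (restrAut a N hN) CN hCNinv) s (fN ⟨θ, hθT⟩)) =
        mult θ (fN ⟨θ, hθT⟩) := by
      apply Nat.cast_injective (R := ℂ)
      rw [← mult_spec, ← mult_spec]
      simp only [classInner]
      congr 1
      refine Fintype.sum_equiv (restrAut (restrAut a N hN) CN hCNinv s⁻¹).toEquiv _ _ fun c => ?_
      show (θ : N → ℂ) c * _ = (θ : N → ℂ) (restrAut a N hN s⁻¹ c) * _
      rw [hθ s⁻¹ c]
      rfl
    show (mult θ _ : ZMod p) ≠ 0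
    rw [hm]; exact (hfN ⟨θ, hθT⟩ (fN ⟨θ, hθT⟩)).2 rfl
  let e : D ≃* CN := (MonoidHom.ofInjective hjinj).symm
  have he : ∀ z : CN, e ⟨j z, z, rfl⟩ = z := fun z => (MonoidHom.ofInjective hjinj).symm_apply_apply z
  let θ'' : IrrCharacter D :=
    ⟨fun d => (θ' : CN → ℂ) (e d), isIrrCharacter_comp θ'.2 e.toMonoidHom e.surjective⟩
  set aC := restrAut a C hCinv with haC
  have hker : T ≤ aC.ker := fun t ht => by
    rw [MonoidHom.mem_ker]
    exact MulEquiv.ext fun k => Subtype.ext (k.2 ⟨t, ht⟩)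
  set a' : A ⧸ T →* MulAut C := QuotientGroup.lift T aC hker with ha'
  have hDinv : ∀ x, ∀ c ∈ D, a' x c ∈ D := fun x c hc =>
    QuotientGroup.induction_on x fun s => (hDmem _).mpr (hN s _ ((hDmem c).mp hc))
  have hθ'' : Inv (restrAut a' D hDinv) (θ'' : D → ℂ) := by
    intro x
    induction x using QuotientGroup.induction_on with
    | _ s =>
      rintro ⟨_, z, rfl⟩
      have h1 : (θ' : CN → ℂ) (restrAut (restrAut a N hN) CN hCNinv s z) = (θ' : CN → ℂ) z :=
        (irrMap_fixed_iff _ θ').mp hθ'inv s z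
      have key : restrAut a' D hDinv (s : A ⧸ T) ⟨j z, z, rfl⟩ =
          ⟨j (restrAut (restrAut a N hN) CN hCNinv s z), _, rfl⟩ := Subtype.ext (Subtype.ext rfl)
      rw [key]
      show (θ' : CN → ℂ) (e ⟨j (restrAut (restrAut a N hN) CN hCNinv s z), _, rfl⟩) =
        (θ' : CN → ℂ) (e ⟨j z, z, rfl⟩)
      rw [he, he]
      exact h1
  have hlt : Nat.card (A ⧸ T) < Nat.card A := by
    rw [← Subgroup.index_eq_card]
    have h1 := T.card_mul_index
    have h2 : 1 < Nat.card T := by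
      rcases Nat.lt_or_ge 1 (Nat.card T) with h | h
      · exact h
      · exact absurd (Subgroup.card_eq_one.mp (le_antisymm h Nat.card_pos)) hTne
    have h3 : 0 < T.index := Nat.pos_of_ne_zero Subgroup.index_ne_zero_of_finite
    nlinarith
  obtain ⟨β, hβ, hβinv⟩ := ih _ hlt a' hDinv (θ := θ'') rfl
    (Group.isSolvable_of_surjective (f := QuotientGroup.mk' T) (QuotientGroup.mk'_surjective T))
    ((hcop.coprime_dvd_left (Subgroup.card_subgroup_dvd_card C)).coprime_dvd_right
      (T.index_eq_card ▸ T.index_dvd_card)) hθ''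
  obtain ⟨f, hf⟩ := exists_equiv_fixed (a := b) hTp hK
  set χ := f.symm β with hχ
  have hfχ : f χ = β := f.apply_symm_apply β
  have hinvA : Inv a (χ.1 : K → ℂ) := by
    rw [← irrMap_fixed_iff a χ.1]
    intro s
    have hmap : Inv b ((irrMap a s χ.1 : IrrCharacter K) : K → ℂ) := by
      intro t k
      show (χ.1 : K → ℂ) (a s⁻¹ (a (t : A) k)) = (χ.1 : K → ℂ) (a s⁻¹ k)
      have := χ.2 ⟨s⁻¹ * t * s, by simpa using hTn.conj_mem (t : A) t.2 s⁻¹⟩ (a s⁻¹ k)
      change (χ.1 : K → ℂ) (a (s⁻¹ * (t : A) * s) (a s⁻¹ k)) = _ at this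
      rwa [← MulAut.mul_apply, ← map_mul, mul_inv_cancel_right, map_mul, MulAut.mul_apply] at this
    have hm : mult (irrMap a s χ.1) (irrMap aC s β) = mult χ.1 β := by
      apply Nat.cast_injective (R := ℂ)
      rw [← mult_spec, ← mult_spec]
      simp only [classInner]
      congr 1
      exact Fintype.sum_equiv (aC s⁻¹).toEquiv _ _ fun c => rfl
    have hfix : irrMap aC s β = β :=
      (irrMap_fixed_iff aC β).mpr (fun x k => hβinv (x : A ⧸ T) k) s
    refine congrArg Subtype.val (f.injective (a₁ := ⟨irrMap a s χ.1, hmap⟩) (a₂ := χ) ?_)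
    rw [hfχ]
    refine ((hf ⟨irrMap a s χ.1, hmap⟩ β).1 ?_).symm
    show (mult (irrMap a s χ.1) β : ZMod p) ≠ 0
    rw [← hfix, hm]
    exact (hf χ β).2 hfχ.symm
  refine ⟨χ.1, fun h0 => ?_, hinvA⟩
  -- both evaluations of the multiplicity of `θ'`
  obtain ⟨R, hR⟩ := classInner_natCast
    (isCharacter_comp (isCharacter_of_isIrr χ.1.2) (C.subtype.comp j)) (isCharacter_of_isIrr θ'.2)
  change classInner (fun z : CN => (χ.1 : K → ℂ) ((j z : C) : K)) (θ' : CN → ℂ) = R at hR
  -- through `C`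
  have hr0 : ∀ ξ : IrrCharacter C, ∃ r : ℕ,
      classInner (fun z => (ξ : C → ℂ) (j z)) (θ' : CN → ℂ) = r := fun ξ =>
    classInner_natCast (isCharacter_comp (isCharacter_of_isIrr ξ.2) j) (isCharacter_of_isIrr θ'.2)
  choose r hr using hr0
  have hz : ∀ ξ, ξ ≠ β → (mult χ.1 ξ : ZMod p) = 0 := fun ξ hne =>
    not_not.1 fun h => hne (((hf χ ξ).1 h).trans hfχ)
  have hC' := mult_congr hz j (θ' : CN → ℂ) r hr R hR
  have hrD : classInner (fun d : D => (β : C → ℂ) d) (θ'' : D → ℂ) = r β := by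
    rw [← hr β, ← classInner_equiv (MonoidHom.ofInjective hjinj)
      (fun d : D => (β : C → ℂ) d) (θ'' : D → ℂ)]
    refine congrArg₂ _ rfl (funext fun z => ?_)
    exact congrArg (θ' : CN → ℂ) (he z)
  have hrp : (r β : ZMod p) ≠ 0 := by
    intro hzero
    have hd := clifford_degree D β.2 θ''.2 hβ
    rw [hrD, apply_one_eq_charDegree (isCharacter_of_isIrr β.2),
      apply_one_eq_charDegree (isCharacter_of_isIrr θ''.2)] at hd
    have hd' : charDegree (β : C → ℂ) =
        r β * (inertia D (θ'' : D → ℂ)).index * charDegree (θ'' : D → ℂ) := by exact_mod_cast hd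
    exact hK ((((((ZMod.natCast_eq_zero_iff _ _).mp hzero).mul_right _).mul_right _).trans
      hd'.symm.dvd).trans ((charDegree_dvd_card β.2).trans (Subgroup.card_subgroup_dvd_card C)))
  -- through `N`
  have hm0 : ∀ φ : IrrCharacter N, ∃ m : ℕ,
      classInner (fun z : N => (χ.1 : K → ℂ) z) (φ : N → ℂ) = m := fun φ =>
    classInner_natCast (isCharacter_restrict (isCharacter_of_isIrr χ.1.2) N) (isCharacter_of_isIrr φ.2)
  choose m hm using hm0
  have hmθ : m θ = 0 := by
    have := hm θ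
    rw [h0] at this
    exact_mod_cast this.symm
  have hRN : (R : ZMod p) = ∑ φ : IrrCharacter N, (m φ : ZMod p) * (mult φ θ' : ZMod p) := by
    have h : (R : ℂ) = ((∑ φ : IrrCharacter N, m φ * mult φ θ' : ℕ) : ℂ) := by
      rw [← hR]
      have h2 := classInner_comp_eq_sum (φ := fun z : N => (χ.1 : K → ℂ) z)
        (isClassFunction_of_isCharacter (isCharacter_restrict (isCharacter_of_isIrr χ.1.2) N))
        (fun z : CN => (z : N)) (θ' : CN → ℂ)
      refine h2.trans ?_
      push_cast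
      exact Finset.sum_congr rfl fun φ _ => by rw [hm, mult_spec]
    rw [Nat.cast_injective h]
    push_cast
    rfl
  have hsum : ∑ φ : IrrCharacter N, (m φ : ZMod p) * (mult φ θ' : ZMod p) = 0 := by
    rw [sum_irr_eq_sum_inv bN hTp _ (fun x φ => ?_)]
    · refine Finset.sum_eq_zero fun φ hφ => ?_
      by_cases hφθ : φ = θ
      · rw [hφθ, hmθ, Nat.cast_zero, zero_mul]
      · by_contra hne
        have h2 := (hfN ⟨φ, (Finset.mem_filter.mp hφ).2⟩ θ').1 (right_ne_zero_of_mul hne)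
        rw [hθ'] at h2
        exact hφθ (congrArg Subtype.val (fN.injective h2)).symm
    · have h1 : m (irrMap bN x φ) = m φ := by
        apply Nat.cast_injective (R := ℂ)
        have h2 := classInner_irrMap hN (x : A) χ.1 φ
        rw [(irrMap_fixed_iff a χ.1).mpr hinvA (x : A)] at h2
        rw [← hm, ← hm]
        exact h2
      have h3 : mult (irrMap bN x φ) θ' = mult φ θ' := by
        apply Nat.cast_injective (R := ℂ)
        rw [← mult_spec, ← mult_spec]
        simp only [classInner]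
        congr 1
        refine Finset.sum_congr rfl fun c _ => ?_
        show (φ : N → ℂ) (bN x⁻¹ c) * _ = _
        rw [c.2 x⁻¹]
      rw [h1, h3]
  rw [hC', hsum] at hRN
  exact mul_ne_zero ((hf χ β).2 hfχ.symm) hrp hRN

end Cfsg.Agent.Lib.Glauberman
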