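import Cfsg.Agent.Lib.Glauberman.Above
import Cfsg.Agent.Lib.Char.Prod
import Cfsg.Agent.Lib.CharClifford.Basic
import Mathlib.GroupTheory.Transfer

/-!
# An invariant character over a central character
-/

set_option autoImplicit false
set_option linter.unusedSectionVars false
set_option linter.style.haveILetI false

namespace Cfsg.Agent.Lib.Glauberman

open Cfsg Cfsg.Agent.Lib.Char
open scoped Classical

universe u

/-- A central subgroup splits off modulo the elements killed by a power of its index. -/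
theorem exists_central_split {L : Type u} [Group L] [Finite L] (W : Subgroup L)
    (hW : W ≤ Subgroup.center L) :
    ∃ K : Subgroup L, (∃ e : ℕ, ∀ x, x ∈ K ↔ x ^ e = 1) ∧
      (∀ x : L, ∃ k ∈ K, ∃ w ∈ W, k * w = x) ∧
      ∀ n : ℕ, W.index.Coprime n → (Nat.card K).Coprime n := by
  haveI : W.Normal := ⟨fun w hw g => by
    rwa [Subgroup.mem_center_iff.mp (hW hw) g, mul_inv_cancel_right]⟩
  set m := W.index with hm
  obtain ⟨c, hc⟩ : (Subgroup.center L).index ∣ m := Subgroup.index_dvd_of_le hW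
  have hpow : ∀ x y : L, (x * y) ^ m = x ^ m * y ^ m := by
    intro x y
    have h := congrArg Subtype.val (map_mul (MonoidHom.transferCenterPow L) x y)
    rw [Subgroup.coe_mul, MonoidHom.transferCenterPow_apply, MonoidHom.transferCenterPow_apply,
      MonoidHom.transferCenterPow_apply] at h
    rw [hc, pow_mul, h, Commute.mul_pow, ← pow_mul, ← pow_mul]
    exact Subgroup.mem_center_iff.mp (Subgroup.pow_index_mem (Subgroup.center L) y) _
  set n := Nat.card L with hn
  set e := m ^ (n + 1) with he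
  have hepow : ∀ x y : L, (x * y) ^ e = x ^ e * y ^ e := by
    intro x y
    rw [he, pow_succ', pow_mul, hpow, Commute.mul_pow, ← pow_mul, ← pow_mul]
    exact Subgroup.mem_center_iff.mp (hW (Subgroup.pow_index_mem W y)) _
  let f : L →* L := MonoidHom.mk' (fun x => x ^ e) hepow
  refine ⟨f.ker, ⟨e, fun x => Iff.rfl⟩, fun x => ?_, fun r hr => Nat.coprime_of_dvd ?_⟩
  · set y := x ^ e with hy
    have hcop : (orderOf y).Coprime e := by
      refine Nat.Coprime.pow_right _ (Nat.coprime_of_dvd fun p hp hpy hpm => ?_)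
      have hord : orderOf y = orderOf x / (orderOf x).gcd e := orderOf_pow x
      have hg : (orderOf x).gcd e ∣ orderOf x := Nat.gcd_dvd_left _ _
      have hdvd : p * (orderOf x).gcd e ∣ orderOf x := by
        have := Nat.mul_dvd_mul_right hpy ((orderOf x).gcd e)
        rwa [hord, Nat.div_mul_cancel hg] at this
      have hall : ∀ i, i ≤ n + 2 → p ^ i ∣ orderOf x := by
        intro i
        induction i with
        | zero => simp
        | succ i ih =>
          intro hi
          refine dvd_trans ?_ hdvd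
          rw [pow_succ']
          exact Nat.mul_dvd_mul_left p (Nat.dvd_gcd (ih (by omega))
            ((pow_dvd_pow_of_dvd hpm i).trans (pow_dvd_pow m (by omega))))
      have h1 := Nat.le_of_dvd (orderOf_pos x) (hall (n + 2) le_rfl)
      have h2 : orderOf x ≤ n := orderOf_le_card
      have h3 := (Nat.lt_pow_self hp.one_lt : n + 2 < p ^ (n + 2))
      omega
    obtain ⟨u, hu⟩ := exists_pow_eq_self_of_coprime hcop.symm
    have hyW : y ∈ W := by
      rw [hy, he, pow_succ', pow_mul]
      exact W.pow_mem (Subgroup.pow_index_mem W x) _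
    refine ⟨x * (y ^ u)⁻¹, ?_, y ^ u, W.pow_mem hyW u, inv_mul_cancel_right _ _⟩
    show (x * (y ^ u)⁻¹) ^ e = 1
    rw [hepow, inv_pow, ← pow_mul, mul_comm u, pow_mul, hu, mul_inv_cancel]
  · intro p hp hpK hpr
    haveI := Fact.mk hp
    obtain ⟨z, hz⟩ := exists_prime_orderOf_dvd_card' p hpK
    have h1 : p ∣ e := by
      rw [← hz, ← Subgroup.orderOf_coe]
      exact orderOf_dvd_of_pow_eq_one z.2
    exact hp.not_dvd_one (hr.gcd_eq_one ▸ Nat.dvd_gcd (hp.dvd_of_dvd_pow h1) hpr)

/-- An irreducible character multiplies by a linear character on central elements it lies over. -/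
theorem apply_central_mul {K : Type u} [Group K] [Finite K] {W : Subgroup K} [Fintype W]
    (hW : W ≤ Subgroup.center K) (ε : W →* ℂˣ) {β : K → ℂ} (hβ : IsIrrCharacter K β)
    (h : classInner (fun w : W => β w) (fun w => (ε w : ℂ)) ≠ 0) (w : W) (k : K) :
    β (w * k) = (ε w : ℂ) * β k := by
  haveI : W.Normal := ⟨fun w hw g => by
    rwa [Subgroup.mem_center_iff.mp (hW hw) g, mul_inv_cancel_right]⟩
  have := Fintype.ofFinite K
  have horb : ∀ ψ ∈ orbit W (fun w => (ε w : ℂ)), ∀ v : W, ψ v = (ε v : ℂ) := by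
    intro ψ hψ v
    obtain ⟨g, rfl⟩ := (mem_orbit W).mp hψ
    rw [conjChar_apply]
    refine congrArg (fun z => (ε z : ℂ)) (Subtype.ext ?_)
    simp [(Subgroup.mem_center_iff.mp (hW v.2) g)]
  have hres : ∀ v : W, β v = classInner (fun w : W => β w) (fun w => (ε w : ℂ)) *
      ((orbit W (fun w => (ε w : ℂ))).card : ℂ) * (ε v : ℂ) := by
    intro v
    have h1 := congrFun (clifford W hβ (isIrrCharacter_linear ε) h) v
    simp only [Pi.smul_apply, Finset.sum_apply, smul_eq_mul] at h1
    rw [h1, Finset.sum_congr rfl fun ψ hψ => horb ψ hψ v, Finset.sum_const, nsmul_eq_mul, mul_assoc]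
  have h1 := hres 1
  rw [map_one, Units.val_one, mul_one, Subgroup.coe_one] at h1
  have h2 : β w = β 1 * (ε w : ℂ) := by rw [hres w, ← h1]
  have hne := irr_degree_ne_zero hβ
  obtain ⟨n, ρ, hρ, rfl⟩ := hβ
  haveI := hρ
  obtain ⟨c, hc⟩ := CharClifford.exists_smul_of_commute ρ (ρ w) (fun g => by
    rw [← map_mul, ← map_mul, Subgroup.mem_center_iff.mp (hW w.2) g])
  have key : ∀ g, ρ.character ((w : K) * g) = c * ρ.character g := fun g => by
    simp only [Representation.character, map_mul, hc, smul_mul_assoc, one_mul, map_smul, smul_eq_mul]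
  rw [key]
  congr 1
  have h3 := key 1
  rw [mul_one, h2, mul_comm c] at h3
  exact (mul_left_cancel₀ hne h3).symm

/-- A solvable group of operators of order prime to the index of a central subgroup fixes an
irreducible character over an invariant linear character. -/
theorem exists_inv_over_central {L A : Type u} [Group L] [Finite L] [Group A] [Finite A]
    (a : A →* MulAut L) (hA : Group.IsSolvable A) (W : Subgroup L) (hW : W ≤ Subgroup.center L)
    (hWA : ∀ x, ∀ w ∈ W, a x w ∈ W) (hcop : W.index.Coprime (Nat.card A)) (ε : W →* ℂˣ)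
    (hε : ∀ (x : A) (w : W), ε ⟨a x w, hWA x w w.2⟩ = ε w) :
    ∃ β : L → ℂ, IsIrrCharacter L β ∧ (∀ (w : W) (l : L), β (w * l) = (ε w : ℂ) * β l) ∧
      Inv a β := by
  obtain ⟨K, ⟨e, hKmem⟩, hKW, hKcop⟩ := exists_central_split W hW
  have hKA : ∀ x, ∀ k ∈ K, a x k ∈ K := fun x k hk => by
    rw [hKmem] at hk ⊢
    rw [← map_pow, hk, map_one]
  set V := W.subgroupOf K with hV
  have hVc : V ≤ Subgroup.center K := fun v hv =>
    Subgroup.mem_center_iff.mpr fun k => Subtype.ext (Subgroup.mem_center_iff.mp (hW hv) k)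
  haveI : V.Normal := ⟨fun v hv g => by
    rwa [Subgroup.mem_center_iff.mp (hVc hv) g, mul_inv_cancel_right]⟩
  have := Fintype.ofFinite K
  have := Fintype.ofFinite V
  let ι : V →* W :=
    { toFun := fun v => ⟨((v : K) : L), v.2⟩, map_one' := rfl, map_mul' := fun _ _ => rfl }
  obtain ⟨β, hβ, hβinv⟩ := exists_inv_above_coprime _ (restrAut a K hKA) (N := V)
    (fun x k hk => hWA x _ hk) (θ := ⟨_, isIrrCharacter_linear (ε.comp ι)⟩) rfl hA
    (hKcop _ hcop) (fun x v => congrArg Units.val (hε x (ι v)))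
  have hmul := apply_central_mul hVc (ε.comp ι) β.2 hβ
  let F : K × W →* L :=
    { toFun := fun z => (z.1 : L) * (z.2 : L)
      map_one' := one_mul _
      map_mul' := fun z y => by
        show (z.1 : L) * (y.1 : L) * ((z.2 : L) * (y.2 : L)) = (z.1 : L) * (z.2 : L) * ((y.1 : L) * (y.2 : L))
        rw [mul_assoc, mul_assoc (z.1 : L), ← mul_assoc (y.1 : L),
          Subgroup.mem_center_iff.mp (hW z.2.2) (y.1 : L), mul_assoc (z.2 : L)] }
  have hF : Function.Surjective F := fun l => by
    obtain ⟨k, hk, w, hw, rfl⟩ := hKW l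
    exact ⟨(⟨k, hk⟩, ⟨w, hw⟩), rfl⟩
  obtain ⟨ψ, hψ, hψe⟩ := exists_irr_deflation
    (isIrrCharacter_prod β.2 (isIrrCharacter_linear ε)) F.ker fun z hz => by
      have hz' : (z.1 : L) * (z.2 : L) = 1 := hz
      have hzW : (z.1 : L) ∈ W := by
        rw [eq_inv_of_mul_eq_one_left hz']
        exact W.inv_mem z.2.2
      have h1 := hmul ⟨z.1, hzW⟩ 1
      rw [mul_one] at h1
      have h2 : ι ⟨z.1, hzW⟩ * z.2 = 1 := Subtype.ext hz'
      show (β : K → ℂ) z.1 * (ε z.2 : ℂ) = (β : K → ℂ) 1 * (ε 1 : ℂ)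
      rw [h1, MonoidHom.comp_apply, map_one, Units.val_one, mul_one, mul_right_comm,
        ← Units.val_mul, ← map_mul, h2, map_one, Units.val_one, one_mul]
  let eq := QuotientGroup.quotientKerEquivOfSurjective F hF
  have happ : ∀ z : K × W, ψ (eq.symm (F z)) = (β : K → ℂ) z.1 * (ε z.2 : ℂ) := fun z => by
    rw [show eq.symm (F z) = (z : (K × W) ⧸ F.ker) from eq.symm_apply_apply (z : (K × W) ⧸ F.ker),
      hψe]
  refine ⟨fun l => ψ (eq.symm l), isIrrCharacter_comp hψ eq.symm.toMonoidHom eq.symm.surjective,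
    fun w l => ?_, fun x l => ?_⟩
  · obtain ⟨⟨k, v⟩, rfl⟩ := hF l
    have h : (w : L) * F (k, v) = F (k, w * v) := by
      show (w : L) * ((k : L) * (v : L)) = (k : L) * ((w : L) * (v : L))
      rw [← mul_assoc, ← Subgroup.mem_center_iff.mp (hW w.2) (k : L), mul_assoc]
    show ψ (eq.symm ((w : L) * F (k, v))) = _ * ψ (eq.symm (F (k, v)))
    rw [h, happ, happ, map_mul, Units.val_mul]
    ring
  · obtain ⟨⟨k, v⟩, rfl⟩ := hF l
    have h : a x (F (k, v)) = F (restrAut a K hKA x k, ⟨a x v, hWA x v v.2⟩) := map_mul (a x) _ _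
    show ψ (eq.symm (a x (F (k, v)))) = ψ (eq.symm (F (k, v)))
    rw [h, happ, happ, hβinv x k, hε]

end Cfsg.Agent.Lib.Glauberman
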