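import Cfsg.Agent.Lib.Glauberman.Supplement
import Cfsg.Agent.Lib.Glauberman.Central
import Cfsg.Agent.Lib.Glauberman.SubgroupLayer
import Cfsg.Agent.Lib.CharClifford.Gallagher
import Cfsg.Agent.Lib.CharClifford.Extend

/-!
# Invariant constituents above, with operators from an overgroup
-/

set_option autoImplicit false
set_option linter.unusedSectionVars false
set_option linter.style.haveILetI false

namespace Cfsg.Agent.Lib.Glauberman

open Cfsg Cfsg.Agent.Lib.Char
open scoped Classical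

universe u

theorem coprime_of_primes {n i m : ℕ} (h : ∀ p : ℕ, p.Prime → p ∣ n → p ∣ i) (hc : i.Coprime m) :
    m.Coprime n :=
  Nat.coprime_of_dvd fun p hp hpm hpn =>
    hp.not_dvd_one (hc.gcd_eq_one ▸ Nat.dvd_gcd (h p hp hpn) hpm)

theorem apply_conj_of_supplement {Γ : Type u} [Group Γ] {G H : Subgroup Γ} [hG : G.Normal]
    (hH : H ⊔ G = ⊤) {χ : G → ℂ} (hχ : IsClassFunction G χ)
    (h : ∀ s ∈ H, ∀ g g' : G, (g' : Γ) = s * g * s⁻¹ → χ g' = χ g) (x : Γ) (g : G) :
    χ ⟨x * g * x⁻¹, hG.conj_mem g g.2 x⟩ = χ g := by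
  have hx : x ∈ H ⊔ G := hH.ge (Subgroup.mem_top x)
  rw [← SetLike.mem_coe, Subgroup.mul_normal, Set.mem_mul] at hx
  obtain ⟨s, hs, g₀, hg₀, rfl⟩ := hx
  rw [h s hs (⟨g₀, hg₀⟩ * g * (⟨g₀, hg₀⟩ : G)⁻¹) _
    (by show s * g₀ * (g : Γ) * (s * g₀)⁻¹ = s * (g₀ * (g : Γ) * g₀⁻¹) * s⁻¹; group), hχ]

section

open CharClifford

variable {Γ : Type u} [Group Γ] [Finite Γ] {N : Subgroup Γ} [N.Normal] {d : ℕ}
  (ρ : Representation ℂ N (Fin d → ℂ)) [ρ.IsIrreducible]

/-- Conjugation moves the preimage of `N` only by the image of `N`. -/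
theorem conj_eq_emb_mul (γ δ : liftGroup ρ) (hγ : proj ρ γ ∈ N) :
    δ * γ * δ⁻¹ = emb ρ ⟨proj ρ δ * proj ρ γ * (proj ρ δ)⁻¹ * (proj ρ γ)⁻¹,
      mul_mem ((inferInstance : N.Normal).conj_mem _ hγ _) (inv_mem hγ)⟩ * γ := by
  refine liftGroup_ext ρ ?_ ?_
  · rw [map_mul, map_mul, map_mul, map_inv, proj_emb]
    group
  · obtain ⟨c, hc⟩ := exists_scalar ρ le_rfl ρ (fun n => rfl) γ hγ
    rw [map_mul, map_mul, map_mul, liftRep_emb, hc, mul_smul_comm, liftRep_comm, smul_mul_assoc,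
      mul_assoc, ← map_mul (liftRep ρ), mul_inv_cancel, map_one, mul_one, mul_smul_comm, ← map_mul]
    congr 2
    apply Subtype.ext
    simp [MulAut.conjNormal_apply]

theorem emb_conj (δ : liftGroup ρ) (n : N) :
    δ * emb ρ n * δ⁻¹ = emb ρ ⟨proj ρ δ * n * (proj ρ δ)⁻¹, (inferInstance : N.Normal).conj_mem _ n.2 _⟩ := by
  rw [conj_eq_emb_mul ρ (emb ρ n) δ n.2, ← map_mul]
  refine congrArg (emb ρ) (Subtype.ext ?_)
  simp [proj_emb]

set_option maxHeartbeats 1000000 in
theorem exists_inv_above_lift (G : Subgroup Γ) [G.Normal] [Fintype G] [Fintype N] (hNG : N ≤ G)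
    (hsolv : Group.IsSolvable (Γ ⧸ G)) (hcop : G.index.Coprime (N.relIndex G))
    (hinv : ∀ (g : Γ) (n : N), ρ.character (MulAut.conjNormal g n) = ρ.character n) :
    ∃ χ : IrrCharacter G, classInner (fun n : N => (χ : G → ℂ) ⟨n, hNG n.2⟩) ρ.character ≠ 0 ∧
      ∀ (x : Γ) (g : G), (χ : G → ℂ) ⟨x * g * x⁻¹, (inferInstance : G.Normal).conj_mem g g.2 x⟩ = (χ : G → ℂ) g := by
  haveI := finite_liftGroup ρ
  have hps := proj_surjective ρ hinv
  set L := G.comap (proj ρ) with hL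
  haveI : L.Normal := inferInstance
  obtain ⟨H, hHL, hHp, hHs⟩ := exists_small_supplement L
  have hHsolv : Group.IsSolvable H := by
    refine hHs ?_
    haveI := hsolv
    refine Group.isSolvable_of_isSolvable_injective
      (f := QuotientGroup.map L G (proj ρ) le_rfl) fun z w => ?_
    induction z using QuotientGroup.induction_on with
    | _ z =>
      induction w using QuotientGroup.induction_on with
      | _ w =>
        intro h
        change ((proj ρ z : Γ) : Γ ⧸ G) = ((proj ρ w : Γ) : Γ ⧸ G) at h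
        rw [QuotientGroup.eq] at h ⊢
        simpa [hL] using h
  let π : L →* G :=
    { toFun := fun γ => ⟨proj ρ γ, γ.2⟩
      map_one' := Subtype.ext (map_one _)
      map_mul' := fun x y => Subtype.ext (map_mul _ _ _) }
  have hπ : Function.Surjective π := fun g => by
    obtain ⟨γ, hγ⟩ := hps g
    exact ⟨⟨γ, show proj ρ γ ∈ G by rw [hγ]; exact g.2⟩, Subtype.ext hγ⟩
  let j : N →* L :=
    { toFun := fun n => ⟨emb ρ n, hNG n.2⟩
      map_one' := Subtype.ext (map_one _)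
      map_mul' := fun x y => Subtype.ext (map_mul _ _ _) }
  set E := j.range with hE
  haveI hEn : E.Normal := ⟨by
    rintro _ ⟨n, rfl⟩ γ
    exact ⟨_, Subtype.ext (emb_conj ρ (γ : liftGroup ρ) n).symm⟩⟩
  set W := (N.subgroupOf G).comap π with hWdef
  haveI : W.Normal := inferInstance
  have hEW : E ≤ W := by rintro _ ⟨n, rfl⟩; exact n.2
  obtain ⟨ν, hν, hνinv, -⟩ := exists_baseScalar ρ hinv
  let νW : W →* ℂˣ := ν.comp
    { toFun := fun w => ⟨((w : L) : liftGroup ρ), w.2⟩, map_one' := rfl, map_mul' := fun _ _ => rfl }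
  have hνE : ∀ e : W, (e : L) ∈ E → νW e = 1 := by
    rintro ⟨_, _⟩ ⟨n, rfl⟩
    apply Units.ext
    refine scalar_unique ρ ρ n ?_
    have h1 := hν ⟨emb ρ n, n.2⟩
    rw [liftRep_emb] at h1
    simp only [proj_emb] at h1
    rw [Units.val_one, one_smul]
    exact h1.symm
  let π₂ : L →* L ⧸ E := QuotientGroup.mk' E
  set W' := W.map π₂ with hW'
  let π₂W : W →* W' := π₂.subgroupMap W
  have hπ₂W : Function.Surjective π₂W := π₂.subgroupMap_surjective W
  have hker : π₂W.ker ≤ νW.ker := fun e he => hνE e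
    ((QuotientGroup.eq_one_iff (e : L)).mp (congrArg Subtype.val he))
  let ε : W' →* ℂˣ := π₂W.liftOfSurjective hπ₂W ⟨νW.comp (MonoidHom.id W), fun e he => hker he⟩
  have hεe : ∀ w : W, ε (π₂W w) = (νW w)⁻¹⁻¹ := fun w => by
    rw [inv_inv]; exact MonoidHom.liftOfRightInverse_comp_apply _ _ _ _ w
  have hcentral : W' ≤ Subgroup.center (L ⧸ E) := by
    rintro _ ⟨w, hw, rfl⟩
    refine Subgroup.mem_center_iff.mpr fun z => ?_
    induction z using QuotientGroup.induction_on with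
    | _ z =>
      show ((z * w : L) : L ⧸ E) = ((w * z : L) : L ⧸ E)
      have h1 := conj_eq_emb_mul ρ (w : liftGroup ρ) (z : liftGroup ρ) hw
      have h2 : ((z * w * z⁻¹ : L) : L ⧸ E) = (w : L ⧸ E) := by
        rw [show z * w * z⁻¹ = j ⟨_, _⟩ * w from Subtype.ext h1, QuotientGroup.mk_mul,
          (QuotientGroup.eq_one_iff (j _)).mpr (MonoidHom.mem_range.mpr ⟨_, rfl⟩), one_mul]
      calc ((z * w : L) : L ⧸ E) = ((z * w * z⁻¹ : L) : L ⧸ E) * (z : L ⧸ E) := by
            rw [← QuotientGroup.mk_mul, inv_mul_cancel_right]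
        _ = ((w * z : L) : L ⧸ E) := by rw [h2, QuotientGroup.mk_mul]
  have hindex : W'.index = N.relIndex G := by
    rw [Subgroup.index_map_eq W (QuotientGroup.mk'_surjective E) (by simpa [π₂] using hEW),
      Subgroup.index_comap_of_surjective _ hπ]
    rfl
  have hLidx : L.index = G.index := Subgroup.index_comap_of_surjective _ hps
  have hnorm : ∀ s ∈ H, ∀ γ ∈ L, s * γ * s⁻¹ ∈ L := fun s _ γ hγ =>
    (inferInstance : L.Normal).conj_mem γ hγ s
  set a := conjHom hnorm with ha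
  have hEA : ∀ x : H, ∀ γ ∈ E, a x γ ∈ E := by
    rintro x _ ⟨n, rfl⟩
    exact ⟨_, Subtype.ext (emb_conj ρ (x : liftGroup ρ) n).symm⟩
  set a' := quotAut E a hEA with ha'
  have hWA : ∀ x : H, ∀ w ∈ W, a x w ∈ W := fun x w hw => by
    show proj ρ ((x : liftGroup ρ) * (w : liftGroup ρ) * (x : liftGroup ρ)⁻¹) ∈ N
    rw [map_mul, map_mul, map_inv]
    exact (inferInstance : N.Normal).conj_mem _ hw _
  have hWA' : ∀ x : H, ∀ w ∈ W', a' x w ∈ W' := by
    rintro x _ ⟨w, hw, rfl⟩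
    exact ⟨a x w, hWA x w hw, rfl⟩
  let ε' : W' →* ℂˣ := ε⁻¹
  have hεinv : ∀ (x : H) (w : W'), ε' ⟨a' x w, hWA' x w w.2⟩ = ε' w := by
    intro x w
    obtain ⟨w, rfl⟩ := hπ₂W w
    show (ε _)⁻¹ = (ε _)⁻¹
    rw [show (⟨a' x (π₂W w), hWA' x _ (π₂W w).2⟩ : W') = π₂W ⟨a x w, hWA x w w.2⟩ from rfl,
      hεe, hεe, inv_inv, inv_inv]
    exact congrArg (·⁻¹) (hνinv (x : liftGroup ρ) ⟨((w : L) : liftGroup ρ), w.2⟩)
  obtain ⟨β, hβ, hβW, hβinv⟩ := exists_inv_over_central a' hHsolv W' hcentral hWA'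
    (hindex ▸ coprime_of_primes (fun p hp h => hLidx ▸ hHp p hp h) hcop) ε' hεinv
  -- the product with the extension
  let R : L → ℂ := fun γ => (liftRep ρ).character γ
  have hR : IsCharacter L R :=
    isCharacter_comp (isCharacter_character (liftRep ρ)) L.subtype
  let θE : E → ℂ := fun z => R z
  have := Fintype.ofFinite E
  have := Fintype.ofFinite L
  have hθE : IsIrrCharacter E θE := by
    let e : E →* N :=
      { toFun := fun z => ⟨proj ρ ((z : L) : liftGroup ρ), by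
          obtain ⟨_, n, rfl⟩ := z; exact n.2⟩
        map_one' := Subtype.ext (map_one _)
        map_mul' := fun x y => Subtype.ext (map_mul _ _ _) }
    have h1 : θE = fun z => ρ.character (e z) := by
      funext z
      obtain ⟨_, n, rfl⟩ := z
      exact (character_emb ρ n).trans (congrArg ρ.character (Subtype.ext (proj_emb ρ n).symm))
    rw [h1]
    exact isIrrCharacter_comp (isIrrCharacter_character ρ) e fun n => ⟨⟨j n, n, rfl⟩, rfl⟩
  have hone : IsIrrCharacter E ((fun _ : E => (1 : ℂ)) * θE) := by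
    rwa [show (fun _ : E => (1 : ℂ)) * θE = θE from funext fun z => one_mul _]
  have hb := gallagher_bijOn E (φ := fun _ => 1) isIrrCharacter_one (fun g => rfl) hone hR
    (fun z => rfl)
  let βL : L → ℂ := fun γ => β (γ : L ⧸ E)
  have hβL : IsIrrCharacter L βL := isIrrCharacter_comp hβ π₂ (QuotientGroup.mk'_surjective E)
  have hβLE : ∀ z : E, βL z = β 1 := fun z => congrArg β ((QuotientGroup.eq_one_iff (z : L)).mpr z.2)
  have hη : IsIrrCharacter L (βL * R) := (hb.1 ⟨hβL, by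
    rw [classInner_indFun E _ (isClassFunction_of_isIrr hβL),
      show (fun z : E => βL z) = β 1 • fun _ : E => (1 : ℂ) from funext fun z => by
        rw [Pi.smul_apply, smul_eq_mul, mul_one, hβLE],
      classInner_conj_symm, classInner_smul_left, classInner_irr_self isIrrCharacter_one, mul_one,
      map_ne_zero]
    exact irr_degree_ne_zero hβ⟩).1
  have hηw : ∀ (w : W) (γ : L), (βL * R) (w * γ) =
      ((ν ⟨((w : L) : liftGroup ρ), w.2⟩ : ℂ))⁻¹ * βL γ * (liftRep ρ).character (((w : L) : liftGroup ρ) * γ) := by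
    intro w γ
    show β ((w * γ : L) : L ⧸ E) * _ = _
    rw [QuotientGroup.mk_mul]
    rw [show ((w : L) : L ⧸ E) = ((π₂W w : W') : L ⧸ E) from rfl, hβW]
    show ((ε (π₂W w))⁻¹ : ℂˣ).1 * _ * _ = _
    rw [hεe, inv_inv, Units.val_inv_eq_inv_val]
    rfl
  obtain ⟨χ', hχ', hχe⟩ := exists_irr_deflation hη π.ker fun z hz => by
    have hz' : proj ρ (z : liftGroup ρ) = 1 := congrArg Subtype.val hz
    have hzN : proj ρ (z : liftGroup ρ) ∈ N := by rw [hz']; exact N.one_mem
    have h1 := hηw ⟨z, hzN⟩ 1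
    rw [mul_one] at h1
    have h3 : (liftRep ρ).character ((z : liftGroup ρ) * ((1 : L) : liftGroup ρ)) =
        (ν ⟨(z : liftGroup ρ), hzN⟩ : ℂ) * R 1 := by
      show (liftRep ρ).character ((z : liftGroup ρ) * 1) = _ * (liftRep ρ).character 1
      rw [mul_one]
      simp only [Representation.character, hν ⟨(z : liftGroup ρ), hzN⟩, map_smul, smul_eq_mul, map_one]
      congr 1
      rw [show (⟨proj ρ (z : liftGroup ρ), hzN⟩ : N) = 1 from Subtype.ext hz', map_one]
    rw [h1, h3]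
    show _ = βL 1 * R 1
    field_simp [Units.ne_zero]
  let eq := QuotientGroup.quotientKerEquivOfSurjective π hπ
  have happ : ∀ γ : L, χ' (eq.symm (π γ)) = βL γ * R γ := fun γ => by
    rw [show eq.symm (π γ) = (γ : L ⧸ π.ker) from eq.symm_apply_apply (γ : L ⧸ π.ker), hχe]
    rfl
  refine ⟨⟨fun g => χ' (eq.symm g), isIrrCharacter_comp hχ' eq.symm.toMonoidHom eq.symm.surjective⟩,
    ?_, fun x g => apply_conj_of_supplement (H := H.map (proj ρ)) ?_
      (isClassFunction_of_isIrr (isIrrCharacter_comp hχ' eq.symm.toMonoidHom eq.symm.surjective)) ?_ x g⟩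
  · show classInner (fun n : N => χ' (eq.symm ⟨n, hNG n.2⟩)) ρ.character ≠ 0
    have h : (fun n : N => χ' (eq.symm ⟨n, hNG n.2⟩)) = β 1 • ρ.character := funext fun n => by
      rw [show (⟨(n : Γ), hNG n.2⟩ : G) = π (j n) from rfl, happ, Pi.smul_apply, smul_eq_mul,
        hβLE ⟨j n, n, rfl⟩]
      exact congrArg _ (character_emb ρ n)
    rw [h, classInner_smul_left, classInner_irr_self (isIrrCharacter_character ρ), mul_one]
    exact irr_degree_ne_zero hβ
  · rw [← Subgroup.map_top_of_surjective (proj ρ) hps, ← hHL, Subgroup.map_sup,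
      Subgroup.map_comap_eq_self_of_surjective hps]
  · rintro _ ⟨s, hs, rfl⟩ g g' hg'
    obtain ⟨γ, rfl⟩ := hπ g
    rw [show g' = π (a ⟨s, hs⟩ γ) from Subtype.ext (hg'.trans (by
      show _ = proj ρ (s * (γ : liftGroup ρ) * s⁻¹)
      rw [map_mul, map_mul, map_inv]
      rfl))]
    show χ' (eq.symm (π (a ⟨s, hs⟩ γ))) = χ' (eq.symm (π γ))
    rw [happ, happ]
    refine congrArg₂ (· * ·) (hβinv ⟨s, hs⟩ (γ : L ⧸ E)) ?_
    exact Representation.char_conj (liftRep ρ) (γ : liftGroup ρ) s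

end

/-- An invariant character has an invariant constituent above a coprime layer. -/
theorem exists_inv_above_quotient {Γ : Type u} [Group Γ] [Fintype Γ] (G N : Subgroup Γ) [hG : G.Normal]
    [hN : N.Normal] [Fintype G] [Fintype N] (hNG : N ≤ G) (hcop : (G.index).Coprime (N.relIndex G))
    (hsolv : Group.IsSolvable (Γ ⧸ G) ∨ Group.IsSolvable (G ⧸ N.subgroupOf G)) (θ : IrrCharacter N)
    (hinv : ∀ (x : Γ) (n : N), (θ : N → ℂ) ⟨x * n * x⁻¹, hN.conj_mem n n.2 x⟩ = (θ : N → ℂ) n) :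
    ∃ χ : IrrCharacter G, classInner (fun n : N => (χ : G → ℂ) ⟨n, hNG n.2⟩) (θ : N → ℂ) ≠ 0 ∧
      ∀ (x : Γ) (g : G), (χ : G → ℂ) ⟨x * g * x⁻¹, hG.conj_mem g g.2 x⟩ = (χ : G → ℂ) g := by
  rcases hsolv with hs | hs
  · obtain ⟨θ, hθ⟩ := θ
    obtain ⟨d, ρ, hρ, rfl⟩ := hθ
    haveI := hρ
    refine exists_inv_above_lift ρ G hNG hs hcop fun g n => ?_
    exact (congrArg ρ.character (Subtype.ext (MulAut.conjNormal_apply g n))).trans (hinv g n)
  · obtain ⟨H, hH, hHp, -⟩ := exists_small_supplement G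
    have hnorm : ∀ s ∈ H, ∀ g ∈ G, s * g * s⁻¹ ∈ G := fun s _ g hg => hG.conj_mem g hg s
    have hNS : ∀ s ∈ H, ∀ n ∈ N, s * n * s⁻¹ ∈ N := fun s _ n hn => hN.conj_mem n hn s
    have := Fintype.ofFinite (N.subgroupOf G)
    have hN' := stable_subgroupOf hnorm hNS (G := G)
    obtain ⟨χ, hχ, hχinv⟩ := exists_inv_above_solvable (A := H) _ (conjHom hnorm) hN'
      (θ := irrSub hNG θ) rfl
      ((inv_irrSub_iff hnorm hNS hNG θ).mpr fun s _ g g' e => by
        rw [show g' = ⟨s * g * s⁻¹, hN.conj_mem g g.2 s⟩ from Subtype.ext e]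
        exact hinv s g) hs (coprime_of_primes hHp hcop)
    exact ⟨χ, (classInner_irrSub hNG χ θ).trans_ne hχ, apply_conj_of_supplement hH
      (isClassFunction_of_isIrr χ.2) ((inv_conjHom_iff hnorm _).mp hχinv)⟩

end Cfsg.Agent.Lib.Glauberman
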