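import Cfsg.Agent.Lib.Glauberman.CyclicExt
import Mathlib.Algebra.Order.Chebyshev

/-!
# A cyclic coprime action with the same fixed points for all nontrivial elements
-/

set_option autoImplicit false
set_option linter.unusedSectionVars false
set_option linter.style.haveILetI false

namespace Cfsg.Agent.Lib.Glauberman

open Cfsg Cfsg.Agent.Lib.Char
open scoped ComplexConjugate Classical

universe u

/-- An integer vector of least positive variance differs from a constant in one place. -/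
theorem variance_bound {ι : Type*} [Fintype ι] (n : ι → ℕ) (hne : ∃ i j, n i ≠ n j) :
    (Fintype.card ι : ℤ) - 1 ≤ (Fintype.card ι : ℤ) * ∑ i, (n i : ℤ) ^ 2 - (∑ i, (n i : ℤ)) ^ 2 ∧
      ((Fintype.card ι : ℤ) * ∑ i, (n i : ℤ) ^ 2 - (∑ i, (n i : ℤ)) ^ 2 = (Fintype.card ι : ℤ) - 1 →
        ∃ (i₀ : ι) (c : ℕ) (ε : ℤ), (ε = 1 ∨ ε = -1) ∧
          ∀ i, (n i : ℤ) = c + if i = i₀ then ε else 0) := by
  classical
  obtain ⟨i₁, j₁, hij⟩ := hne
  obtain ⟨im, -, him⟩ := Finset.exists_max_image Finset.univ n ⟨i₁, Finset.mem_univ _⟩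
  let a : ι → ℤ := fun i => (n im : ℤ) - n i
  have ha : ∀ i, 0 ≤ a i := fun i => by
    have := him i (Finset.mem_univ i)
    simp only [a]; omega
  let J := Finset.univ.filter fun i => a i ≠ 0
  have hsum2 : ∑ i, a i ^ 2 = ∑ i ∈ J, a i ^ 2 :=
    (Finset.sum_subset (Finset.subset_univ J) fun i _ hi => by simp [J] at hi; simp [hi]).symm
  have hsum1 : ∑ i, a i = ∑ i ∈ J, a i :=
    (Finset.sum_subset (Finset.subset_univ J) fun i _ hi => by simp [J] at hi; simp [hi]).symm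
  have hV : (Fintype.card ι : ℤ) * ∑ i, (n i : ℤ) ^ 2 - (∑ i, (n i : ℤ)) ^ 2 =
      (Fintype.card ι : ℤ) * ∑ i, a i ^ 2 - (∑ i, a i) ^ 2 := by
    simp only [a, sub_sq, Finset.sum_add_distrib, Finset.sum_sub_distrib, Finset.sum_const,
      Finset.card_univ, nsmul_eq_mul, ← Finset.mul_sum]
    ring
  have hcs : (∑ i ∈ J, a i) ^ 2 ≤ (J.card : ℤ) * ∑ i ∈ J, a i ^ 2 := sq_sum_le_card_mul_sum_sq
  have hone : ∀ i ∈ J, 1 ≤ a i ^ 2 := fun i hi => by
    have h1 : a i ≠ 0 := (Finset.mem_filter.mp hi).2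
    have := ha i
    nlinarith [show 1 ≤ a i by omega]
  have hJ2 : (J.card : ℤ) ≤ ∑ i ∈ J, a i ^ 2 := by
    simpa using Finset.card_nsmul_le_sum J (fun i => a i ^ 2) 1 hone
  have hk : J.card < Fintype.card ι := Finset.card_lt_univ_of_notMem (x := im) (by simp [J, a])
  have hj : 0 < J.card := Finset.card_pos.mpr (by
    by_cases h : n i₁ = n im
    · exact ⟨j₁, Finset.mem_filter.mpr ⟨Finset.mem_univ _, by simp only [a]; omega⟩⟩
    · exact ⟨i₁, Finset.mem_filter.mpr ⟨Finset.mem_univ _, by simp only [a]; omega⟩⟩)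
  rw [hV, hsum1, hsum2]
  have hA : (Fintype.card ι : ℤ) - 1 ≤ ((Fintype.card ι : ℤ) - J.card) * (J.card : ℤ) := by
    nlinarith [mul_nonneg (show (0 : ℤ) ≤ (Fintype.card ι : ℤ) - J.card - 1 by omega)
      (show (0 : ℤ) ≤ (J.card : ℤ) - 1 by omega)]
  have hB : ((Fintype.card ι : ℤ) - J.card) * (J.card : ℤ) ≤
      ((Fintype.card ι : ℤ) - J.card) * ∑ i ∈ J, a i ^ 2 :=
    mul_le_mul_of_nonneg_left hJ2 (by omega)
  refine ⟨by nlinarith, fun heq => ?_⟩
  have hS : ∑ i ∈ J, a i ^ 2 = (J.card : ℤ) := by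
    have : ((Fintype.card ι : ℤ) - J.card) * ∑ i ∈ J, a i ^ 2 ≤
        ((Fintype.card ι : ℤ) - J.card) * (J.card : ℤ) := by nlinarith
    exact le_antisymm (le_of_mul_le_mul_left this (by omega)) hJ2
  have ha1 : ∀ i ∈ J, a i = 1 := by
    intro i hi
    have h1 : ∀ k ∈ J, a k ^ 2 - 1 = 0 := (Finset.sum_eq_zero_iff_of_nonneg fun k hk => by
      have := hone k hk; linarith).mp (by rw [Finset.sum_sub_distrib, hS]; simp)
    have := ha i
    nlinarith [h1 i hi]
  have hcase : J.card = 1 ∨ J.card + 1 = Fintype.card ι := by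
    have h1 : ((Fintype.card ι : ℤ) - J.card - 1) * ((J.card : ℤ) - 1) = 0 := by
      have h2 : (∑ i ∈ J, a i) = (J.card : ℤ) := by rw [Finset.sum_congr rfl ha1]; simp
      rw [hS, h2] at heq
      linarith
    rcases mul_eq_zero.mp h1 with h | h
    · right; omega
    · left; omega
  have hval : ∀ i, (n i : ℤ) = (n im : ℤ) - if i ∈ J then 1 else 0 := by
    intro i
    by_cases hi : i ∈ J
    · have := ha1 i hi; simp only [a] at this; rw [if_pos hi]; omega
    · have : a i = 0 := by simpa [J] using hi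
      simp only [a] at this; rw [if_neg hi]; omega
  rcases hcase with hc | hc
  · obtain ⟨i₀, hi₀⟩ := Finset.card_eq_one.mp hc
    refine ⟨i₀, n im, -1, Or.inr rfl, fun i => ?_⟩
    rw [hval i, hi₀]
    by_cases hi : i = i₀ <;> simp [hi] <;> omega
  · have hc' : (Jᶜ : Finset ι).card = 1 := by rw [Finset.card_compl]; omega
    obtain ⟨i₀, hi₀⟩ := Finset.card_eq_one.mp hc'
    obtain ⟨j₀, hj₀⟩ := Finset.card_pos.mp hj
    have h0 := hval j₀
    rw [if_pos hj₀] at h0
    refine ⟨i₀, n j₀, 1, Or.inl rfl, fun i => ?_⟩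
    rw [hval i]
    by_cases hi : i = i₀
    · subst hi
      have : i ∉ J := fun h => by
        have h1 : i ∈ (Jᶜ : Finset ι) := hi₀ ▸ Finset.mem_singleton_self i
        exact (Finset.mem_compl.mp h1) h
      rw [if_neg this, if_pos rfl]; omega
    · have : i ∈ J := by
        by_contra h
        exact hi (Finset.mem_singleton.mp (hi₀ ▸ Finset.mem_compl.mpr h))
      rw [if_pos this, if_neg hi]; omega

theorem sum_normSq_linear_comb {A : Type u} [CommGroup A] [Fintype A] [Fintype (A →* ℂˣ)]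
    (n : (A →* ℂˣ) → ℕ) :
    ∑ x : A, (∑ l, (n l : ℂ) * (l x : ℂ)) * conj (∑ l, (n l : ℂ) * (l x : ℂ)) =
      (Nat.card A : ℂ) * ∑ l, (n l : ℂ) ^ 2 := by
  simp only [map_sum, map_mul, map_natCast, Finset.sum_mul, Finset.mul_sum]
  rw [Finset.sum_comm]
  refine Finset.sum_congr rfl fun l _ => ?_
  rw [Finset.sum_comm, Finset.sum_eq_single l]
  · have h : ∀ x : A, (n l : ℂ) * (l x : ℂ) * ((n l : ℂ) * conj (l x : ℂ)) = (n l : ℂ) ^ 2 := fun x => by
      have := linear_conj_mul l x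
      linear_combination (n l : ℂ) ^ 2 * this
    simp only [h, Finset.sum_const, Finset.card_univ, nsmul_eq_mul, Nat.card_eq_fintype_card]
  · intro m _ hm
    have h := classInner_irr_ne (isIrrCharacter_linear m) (isIrrCharacter_linear l)
      (fun e => hm (MonoidHom.ext fun x => Units.ext (congrFun e x)))
    rw [classInner, mul_eq_zero] at h
    have h' := h.resolve_left (inv_ne_zero (card_ne_zero_complex A))
    calc _ = (n l : ℂ) * (n m : ℂ) * ∑ x : A, (m x : ℂ) * conj (l x : ℂ) := by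
          rw [Finset.mul_sum]; exact Finset.sum_congr rfl fun x _ => by ring
      _ = 0 := by rw [h', mul_zero]
  · simp

namespace CycSetup

variable {Γ : Type u} [Group Γ] [Finite Γ] {G S C : Subgroup Γ} (H : CycSetup G S C)

include H

theorem restriction [Fintype C] (hfpf : ∀ x ∈ S, x ≠ 1 → G ⊓ Subgroup.centralizer ({x} : Set Γ) = C)
    {χ : G → ℂ} (hχ : IsIrrCharacter G χ) {α : Γ → ℂ} (hα : IsIrrCharacter Γ α)
    (ha : ∀ g : G, α g = χ g) {β : IrrCharacter C} {ε₀ : ℤ} (hε₀ : ε₀ = 1 ∨ ε₀ = -1) {s : Γ}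
    (hs : Subgroup.zpowers s = S)
    (hβ : ∀ c : C, α (c * s) = (ε₀ : ℂ) * (β : C → ℂ) c) :
    ∃ ε : ℤ, (ε = 1 ∨ ε = -1) ∧
      (∃ μ : S → ℂ, IsCharacter S μ ∧ μ 1 = 1 ∧ (∀ x : S, μ x * μ x = 1) ∧
        ∀ c : C, ∀ x : S, x ≠ 1 → α (c * x) = (ε : ℂ) * (β : C → ℂ) c * μ x) ∧
      (∃ ϑ : C → ℂ, IsCharacter C ϑ ∧ (fun c : C => χ ⟨c, H.le c.2⟩) =
        fun c => (Nat.card S : ℂ) * ϑ c + (ε : ℂ) * (β : C → ℂ) c) ∧
      (Nat.card S : ℤ) ∣ (charDegree χ : ℤ) - ε * (charDegree (β : C → ℂ) : ℤ) := by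
  haveI := H.cyc
  letI : CommGroup S := IsCyclic.commGroup
  have := finite_linearHom S
  have := Fintype.ofFinite (S →* ℂˣ)
  have := Fintype.ofFinite S
  have hsS : s ∈ S := hs ▸ Subgroup.mem_zpowers s
  have hdiv : ∀ (ε : ℤ) (ϑ : C → ℂ), IsCharacter C ϑ → (fun c : C => χ ⟨c, H.le c.2⟩) =
        (fun c => (Nat.card S : ℂ) * ϑ c + (ε : ℂ) * (β : C → ℂ) c) →
      (Nat.card S : ℤ) ∣ (charDegree χ : ℤ) - ε * (charDegree (β : C → ℂ) : ℤ) := by
    intro ε ϑ hϑ e
    refine ⟨charDegree ϑ, ?_⟩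
    have h1 := congrFun e 1
    have h2 : χ ⟨((1 : C) : Γ), H.le (1 : C).2⟩ = χ 1 := congrArg χ (Subtype.ext (by simp))
    rw [h2, apply_one_eq_charDegree (isCharacter_of_isIrr hχ), apply_one_eq_charDegree hϑ,
      apply_one_eq_charDegree (isCharacter_of_isIrr β.2)] at h1
    have h3 : (charDegree χ : ℂ) - (ε : ℂ) * (charDegree (β : C → ℂ) : ℂ) =
        (Nat.card S : ℂ) * (charDegree ϑ : ℂ) := by rw [h1]; ring
    exact_mod_cast h3
  by_cases h1S : s = 1
  · subst h1S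
    have hbot : S = ⊥ := by rw [← hs, Subgroup.zpowers_one_eq_bot]
    have hcard : Nat.card S = 1 := by rw [hbot, Subgroup.card_bot]
    have e : (fun c : C => χ ⟨c, H.le c.2⟩) =
        fun c => (Nat.card S : ℂ) * (0 : C → ℂ) c + (ε₀ : ℂ) * (β : C → ℂ) c := funext fun c => by
      rw [← hβ, mul_one, Pi.zero_apply, mul_zero, zero_add, ← ha]
    refine ⟨ε₀, hε₀, ⟨fun _ => 1, isCharacter_one, rfl, fun _ => mul_one 1, fun c x hx => ?_⟩,
      ⟨0, isCharacter_zero, e⟩, hdiv ε₀ 0 isCharacter_zero e⟩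
    exact absurd (Subtype.ext (Subgroup.mem_bot.mp (hbot ▸ x.2))) hx
  choose n hn using fun γ : IrrCharacter C => H.exists_coeff (isCharacter_of_isIrr hα) γ
  let Λ : IrrCharacter C → S → ℂ := fun γ x => ∑ l, (n γ l : ℂ) * (l x : ℂ)
  have hcl : ∀ x : S, IsClassFunction C fun c : C => α (c * x) := fun x =>
    H.isClassFunction_value (isClassFunction_of_isIrr hα) x.2
  have hexp : ∀ (x : S) (c : C), α (c * x) = ∑ γ : IrrCharacter C, Λ γ x * (γ : C → ℂ) c := by
    intro x c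
    have h := congrFun (eq_sum_classInner_smul (hcl x)) c
    rw [h, Finset.sum_apply]
    exact Finset.sum_congr rfl fun γ _ => by rw [Pi.smul_apply, smul_eq_mul, hn γ x]
  have hunit : ∀ x : S, x ≠ 1 → ∑ γ : IrrCharacter C, Λ γ x * conj (Λ γ x) = 1 := by
    intro x hx
    have h := classInner_eq_sum (φ := fun c : C => α (c * x)) (hcl x)
    rw [H.inner_self hχ hα ha x.2 (fun g hg hgx => by
      rw [← hfpf x x.2 (fun e => hx (Subtype.ext e))]
      exact ⟨hg, Subgroup.mem_centralizer_singleton_iff.mpr hgx.symm⟩)] at h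
    rw [h]
    exact Finset.sum_congr rfl fun γ _ => by rw [hn γ x]
  let V : IrrCharacter C → ℤ := fun γ =>
    (Fintype.card (S →* ℂˣ) : ℤ) * ∑ l, (n γ l : ℤ) ^ 2 - (∑ l, (n γ l : ℤ)) ^ 2
  have hcardL : Fintype.card (S →* ℂˣ) = Nat.card S := by
    have h := sum_linearHom (1 : S)
    simp only [map_one, Units.val_one, Finset.sum_const, Finset.card_univ, nsmul_eq_mul, mul_one,
      if_true] at h
    exact_mod_cast h
  have hVsum : ∑ γ, V γ = (Fintype.card (S →* ℂˣ) : ℤ) - 1 := by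
    have hV : ∀ γ, ((V γ : ℤ) : ℂ) = ∑ x ∈ Finset.univ.erase (1 : S), Λ γ x * conj (Λ γ x) := by
      intro γ
      have h := sum_normSq_linear_comb (n γ)
      rw [← Finset.add_sum_erase Finset.univ _ (Finset.mem_univ (1 : S))] at h
      simp only [map_one, Units.val_one, mul_one, map_sum, map_natCast] at h
      rw [eq_comm]
      simp only [V, Λ, hcardL]
      push_cast
      simp only [map_sum, map_mul, map_natCast] at h ⊢
      linear_combination h
    have : ((∑ γ, V γ : ℤ) : ℂ) = (((Fintype.card (S →* ℂˣ) : ℤ) - 1 : ℤ) : ℂ) := by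
      push_cast
      simp only [hV]
      rw [Finset.sum_comm, Finset.sum_congr rfl fun x hx => hunit x (Finset.ne_of_mem_erase hx),
        Finset.sum_const, Finset.card_erase_of_mem (Finset.mem_univ _), Finset.card_univ,
        nsmul_eq_mul, mul_one, hcardL, Nat.card_eq_fintype_card,
        Nat.cast_sub Fintype.card_pos, Nat.cast_one]
    exact_mod_cast this
  -- the coefficient of `β` is not constant
  have hΛs : ∀ γ, Λ γ ⟨s, hsS⟩ = if γ = β then (ε₀ : ℂ) else 0 := by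
    intro γ
    have h := hn γ ⟨s, hsS⟩
    rw [show (fun c : C => α (c * s)) = (ε₀ : ℂ) • (β : C → ℂ) from funext hβ,
      classInner_smul_left] at h
    rw [show Λ γ ⟨s, hsS⟩ = _ from h.symm]
    split_ifs with hg
    · subst hg; rw [classInner_irr_self γ.2, mul_one]
    · rw [classInner_irr_ne β.2 γ.2 (fun e => hg (Subtype.ext e.symm)), mul_zero]
  have hconst : ∀ γ, (∀ i j, n γ i = n γ j) → ∀ x : S, x ≠ 1 → Λ γ x = 0 := by
    intro γ hc x hx
    have : Λ γ x = (n γ 1 : ℂ) * ∑ l : S →* ℂˣ, (l x : ℂ) := by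
      rw [Finset.mul_sum]; exact Finset.sum_congr rfl fun l _ => by rw [hc l 1]
    rw [this, sum_linearHom, if_neg hx, mul_zero]
  have hs1 : (⟨s, hsS⟩ : S) ≠ 1 := fun e => h1S (congrArg Subtype.val e)
  have hβnc : ∃ i j, n β i ≠ n β j := by
    by_contra! hc
    have := hconst β hc _ hs1
    rw [hΛs, if_pos rfl] at this
    rcases hε₀ with rfl | rfl <;> simp at this
  have hVnonneg : ∀ γ, 0 ≤ V γ := fun γ => by
    have := sq_sum_le_card_mul_sum_sq (s := (Finset.univ : Finset (S →* ℂˣ))) (f := fun l => (n γ l : ℤ))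
    simp only [Finset.card_univ] at this
    simp only [V]
    linarith
  obtain ⟨hge, heq⟩ := variance_bound (n β) hβnc
  have hsplit := Finset.add_sum_erase Finset.univ V (Finset.mem_univ β)
  have hrest : 0 ≤ ∑ γ ∈ Finset.univ.erase β, V γ := Finset.sum_nonneg fun γ _ => hVnonneg γ
  obtain ⟨l₀, c₀, ε, hε, hnβ⟩ := heq (by
    show V β = _
    have : (Fintype.card (S →* ℂˣ) : ℤ) - 1 ≤ V β := hge
    linarith)
  have hother : ∀ γ, γ ≠ β → ∀ i j, n γ i = n γ j := by
    intro γ hγ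
    by_contra! hc
    have hg1 : (Fintype.card (S →* ℂˣ) : ℤ) - 1 ≤ V γ := (variance_bound (n γ) hc).1
    have hle : V γ ≤ ∑ δ ∈ Finset.univ.erase β, V δ :=
      Finset.single_le_sum (fun δ _ => hVnonneg δ) (Finset.mem_erase.mpr ⟨hγ, Finset.mem_univ γ⟩)
    have hb1 : (Fintype.card (S →* ℂˣ) : ℤ) - 1 ≤ V β := hge
    have hN : 2 ≤ Fintype.card (S →* ℂˣ) := by
      rw [hcardL]
      have : Nontrivial S := ⟨⟨⟨s, hsS⟩, 1, hs1⟩⟩
      exact Finite.one_lt_card
    omega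
  have hΛβ : ∀ x : S, x ≠ 1 → Λ β x = (ε : ℂ) * (l₀ x : ℂ) := by
    intro x hx
    have h1 : ∀ l : S →* ℂˣ, (n β l : ℂ) = (c₀ : ℂ) + if l = l₀ then (ε : ℂ) else 0 := fun l => by
      have := congrArg (fun z : ℤ => (z : ℂ)) (hnβ l)
      push_cast at this
      simpa using this
    show ∑ l, (n β l : ℂ) * (l x : ℂ) = _
    simp only [h1, add_mul, ite_mul, zero_mul, Finset.sum_add_distrib, ← Finset.mul_sum,
      sum_linearHom, if_neg hx, mul_zero, zero_add, Finset.sum_ite_eq', Finset.mem_univ, if_true]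
  have hl0 : ∀ x : S, (l₀ x : ℂ) * (l₀ x : ℂ) = 1 := by
    have h := hΛβ ⟨s, hsS⟩ hs1
    rw [hΛs, if_pos rfl] at h
    have hg : (l₀ ⟨s, hsS⟩ : ℂ) * (l₀ ⟨s, hsS⟩ : ℂ) = 1 := by
      rcases hε with rfl | rfl <;> rcases hε₀ with rfl | rfl <;> push_cast at h <;>
        first
        | (rw [show (l₀ ⟨s, hsS⟩ : ℂ) = 1 by linear_combination -h]; ring)
        | (rw [show (l₀ ⟨s, hsS⟩ : ℂ) = -1 by linear_combination -h]; ring)
        | (rw [show (l₀ ⟨s, hsS⟩ : ℂ) = 1 by linear_combination h]; ring)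
        | (rw [show (l₀ ⟨s, hsS⟩ : ℂ) = -1 by linear_combination h]; ring)
    intro x
    obtain ⟨k, hk⟩ := mem_powers_iff_mem_zpowers.mpr (hs ▸ x.2 : (x : Γ) ∈ Subgroup.zpowers s)
    rw [show x = ⟨s, hsS⟩ ^ k from Subtype.ext (by simpa using hk.symm), map_pow,
      Units.val_pow_eq_pow_val, ← mul_pow, hg, one_pow]
  let cc : IrrCharacter C → ℕ := fun γ => if γ = β then c₀ else n γ 1
  have hϑ : IsCharacter C (∑ γ : IrrCharacter C, cc γ • (γ : C → ℂ)) :=
    isCharacter_sum _ _ fun γ _ => isCharacter_nsmul (isCharacter_of_isIrr γ.2) _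
  have e : (fun c : C => χ ⟨c, H.le c.2⟩) = fun c => (Nat.card S : ℂ) *
      (∑ γ : IrrCharacter C, cc γ • (γ : C → ℂ)) c + (ε : ℂ) * (β : C → ℂ) c := by
    funext c
    have h := hexp 1 c
    rw [OneMemClass.coe_one, mul_one] at h
    rw [← ha, h, Finset.sum_apply, Finset.mul_sum]
    have hrhs : (ε : ℂ) * (β : C → ℂ) c =
        ∑ γ : IrrCharacter C, if γ = β then (ε : ℂ) * (γ : C → ℂ) c else 0 := by
      simp
    rw [hrhs, ← Finset.sum_add_distrib]
    refine Finset.sum_congr rfl fun γ _ => ?_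
    rw [Pi.smul_apply, nsmul_eq_mul]
    have hΛ1 : Λ γ 1 = ((∑ l, (n γ l : ℤ) : ℤ) : ℂ) := by
      simp [Λ]
    rw [hΛ1]
    by_cases hγ : γ = β
    · subst hγ
      simp only [cc, if_pos rfl, hnβ, Finset.sum_add_distrib, Finset.sum_const, Finset.card_univ,
        Finset.sum_ite_eq', Finset.mem_univ, hcardL, nsmul_eq_mul]
      push_cast
      ring
    · simp only [cc, if_neg hγ, fun l => hother γ hγ l 1, Finset.sum_const, Finset.card_univ, hcardL,
        nsmul_eq_mul]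
      push_cast
      ring
  refine ⟨ε, hε, ⟨fun x => (l₀ x : ℂ), isCharacter_of_isIrr (isIrrCharacter_linear l₀), by simp, hl0,
    fun c x hx => ?_⟩, ⟨_, hϑ, e⟩, hdiv ε _ hϑ e⟩
  rw [hexp x c, Finset.sum_eq_single β]
  · rw [hΛβ x hx]; ring
  · intro γ _ hγ
    rw [hconst γ (hother γ hγ) x hx, zero_mul]
  · simp

end CycSetup

end Cfsg.Agent.Lib.Glauberman
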