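import Mathlib.GroupTheory.SchurZassenhaus
import Mathlib.GroupTheory.Nilpotent
import Mathlib.GroupTheory.Solvable
import Mathlib.GroupTheory.Sylow

/-!
# Minimal supplements
-/

set_option autoImplicit false
set_option linter.style.haveILetI false

namespace Cfsg.Agent.Lib.Glauberman

universe u

/-- A normal subgroup has a supplement with no primes outside its index, solvable with the quotient. -/
theorem exists_small_supplement {Γ : Type u} [Group Γ] [Finite Γ] (G : Subgroup Γ) [G.Normal] :
    ∃ H : Subgroup Γ, H ⊔ G = ⊤ ∧ (∀ p : ℕ, p.Prime → p ∣ Nat.card H → p ∣ G.index) ∧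
      (Group.IsSolvable (Γ ⧸ G) → Group.IsSolvable H) := by
  obtain ⟨H, hH, hmin⟩ := Set.Finite.exists_minimal
    (Set.toFinite {H : Subgroup Γ | H ⊔ G = ⊤}) ⟨⊤, top_sup_eq G⟩
  set D := G.subgroupOf H with hD
  have hsup : ∀ M : Subgroup H, M ⊔ D = ⊤ → M = ⊤ := by
    intro M hM
    have h1 : M.map H.subtype ⊔ G = ⊤ := by
      refine top_le_iff.mp (hH.ge.trans (sup_le ?_ le_sup_right))
      calc H = (M ⊔ D).map H.subtype := by rw [hM, ← MonoidHom.range_eq_map, Subgroup.range_subtype]
        _ = M.map H.subtype ⊔ D.map H.subtype := Subgroup.map_sup _ _ _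
        _ ≤ M.map H.subtype ⊔ G := sup_le_sup le_rfl (by
          rintro _ ⟨x, hx, rfl⟩
          exact hx)
    have h2 : H ≤ M.map H.subtype := hmin h1 (Subgroup.map_subtype_le M)
    refine top_le_iff.mp fun x _ => ?_
    obtain ⟨y, hy, hyx⟩ := h2 x.2
    exact Subtype.ext hyx ▸ hy
  have hnorm : ∀ (p : ℕ) (_ : Fact p.Prime) (P : Sylow p D),
      ((P : Subgroup D).map D.subtype).Normal := fun p _ P =>
    Subgroup.normalizer_eq_top_iff.mp (hsup _ P.normalizer_sup_eq_top)
  have hindex : D.index ∣ G.index := by
    show G.relIndex H ∣ G.index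
    exact Subgroup.relIndex_dvd_index_of_normal G H
  refine ⟨H, hH, fun p hp hdvd => ?_, fun hsolv => ?_⟩
  · by_contra hni
    haveI := Fact.mk hp
    obtain ⟨P⟩ : Nonempty (Sylow p D) := inferInstance
    haveI := hnorm p inferInstance P
    set P' := (P : Subgroup D).map D.subtype
    have hpH : ¬ p ∣ D.index := fun h => hni (h.trans hindex)
    have hidx : P'.index = (P : Subgroup D).index * D.index := by
      rw [Subgroup.index_map_subtype]
    have hpP : ¬ p ∣ P'.index := by
      rw [hidx, hp.dvd_mul, not_or]
      exact ⟨P.not_dvd_index, hpH⟩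
    obtain ⟨B, hB⟩ := Subgroup.exists_right_complement'_of_coprime (N := P') (by
      obtain ⟨k, hk⟩ := IsPGroup.iff_card.mp (P.isPGroup'.map D.subtype)
      show Nat.Coprime (Nat.card P') P'.index
      rw [hk]
      exact (Nat.Coprime.pow_left k (hp.coprime_iff_not_dvd.mpr hpP)))
    have hBtop : B = ⊤ := hsup B (top_le_iff.mp (hB.sup_eq_top.ge.trans
      (sup_le (le_sup_of_le_right (Subgroup.map_subtype_le _)) le_sup_left)))
    have hP1 : Nat.card P' = 1 := by
      have := hB.card_mul_card
      rw [hBtop, Subgroup.card_top] at this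
      exact Nat.eq_of_mul_eq_mul_right (m := Nat.card H) Nat.card_pos (by rw [this, one_mul])
    rw [← P'.card_mul_index, hP1, one_mul] at hdvd
    exact hpP hdvd
  · have hnil : Group.IsNilpotent D := by
      refine (Group.isNilpotent_of_finite_tfae.out 0 3).mpr fun p hp P => ?_
      haveI := hnorm p hp P
      exact (Subgroup.comap_map_eq_self_of_injective D.subtype_injective (P : Subgroup D)) ▸
        (inferInstance : (((P : Subgroup D).map D.subtype).comap D.subtype).Normal)
    haveI := hsolv
    haveI : Group.IsSolvable (H ⧸ D) := Group.isSolvable_of_isSolvable_injective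
      (f := QuotientGroup.map D G H.subtype le_rfl) fun z w => by
        induction z using QuotientGroup.induction_on with
        | _ z =>
          induction w using QuotientGroup.induction_on with
          | _ w =>
            intro h
            change ((z : Γ) : Γ ⧸ G) = ((w : Γ) : Γ ⧸ G) at h
            rw [QuotientGroup.eq] at h ⊢
            exact h
    haveI : Group.IsSolvable D := inferInstance
    exact Group.isSolvable_of_ker_le_range D.subtype (QuotientGroup.mk' D) (by simp)

end Cfsg.Agent.Lib.Glauberman
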